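-- Team project SPU (S2316, helper19), package [LAGRANK] (helper10):
-- for `X` in the affine family of a symplectic form with `X² + X` nilpotent, the stable rank
-- of `X` is half the dimension.
import Mathlib
import Cfsg.Agent.Lib.Helper19.SPU.Defs

set_option autoImplicit false
open scoped Matrix

namespace Cfsg.Agent.Lib.Helper10.SPU

open Cfsg.Agent.Lib.Helper19.SPU Matrix

universe u

section

variable {F : Type u} [Field F] {n : Type} [Fintype n] [DecidableEq n]

omit [DecidableEq n] in
theorem rank_add_le' (A B : Matrix n n F) : (A + B).rank ≤ A.rank + B.rank := by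
  unfold Matrix.rank
  have h : LinearMap.range (A + B).mulVecLin ≤
      LinearMap.range A.mulVecLin ⊔ LinearMap.range B.mulVecLin := by
    rintro _ ⟨x, rfl⟩
    rw [Matrix.mulVecLin_add]
    exact Submodule.add_mem_sup ⟨x, rfl⟩ ⟨x, rfl⟩
  exact (Submodule.finrank_mono h).trans (Submodule.finrank_add_le_finrank_add_finrank _ _)

theorem affA_pow (K X : Matrix n n F) (hA : AffA K X) (j : ℕ) :
    K * (X + 1) ^ j = (-1 : F) ^ j • (Xᵀ ^ j * K) := by
  have hK1 : K * (X + 1) = -(Xᵀ * K) := by
    rw [mul_add, mul_one]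
    exact eq_neg_of_add_eq_zero_right (by rw [← add_assoc]; exact hA)
  induction j with
  | zero => simp
  | succ j ih =>
    rw [pow_succ, ← mul_assoc, ih, Matrix.smul_mul, mul_assoc, hK1, mul_neg, smul_neg,
      pow_succ, pow_succ, mul_assoc, mul_neg_one, neg_smul]

end

/-- [LAGRANK] -/
theorem pkgLagRank : PkgLagRank.{u} := by
  intro F _ n _ _ K X hK hA hN
  obtain ⟨-, -, hKu⟩ := hK
  have hKdet : IsUnit K.det := (Matrix.isUnit_iff_isUnit_det _).mp hKu
  set c := Fintype.card n with hc
  -- (a)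
  have hcomm : Commute X (X + 1) := (Commute.refl X).add_right (Commute.one_right X)
  have hM : X ^ c * (X + 1) ^ c = 0 := by
    rw [← hcomm.mul_pow, mul_add, mul_one]
    exact Cfsg.Agent.Lib.Helper40.isNilpotent_pow_card hN le_rfl
  have ha : (X ^ c).rank + ((X + 1) ^ c).rank ≤ c :=
    Matrix.rank_add_rank_le_card_of_mul_eq_zero hM
  -- (b)
  have hcop : IsCoprime ((Polynomial.X : Polynomial F) ^ c) ((Polynomial.X + 1) ^ c) :=
    IsCoprime.pow ⟨-1, 1, by ring⟩
  obtain ⟨u, v, huv⟩ := hcop
  have h := congrArg (Polynomial.aeval X) huv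
  simp only [map_add, map_mul, map_pow, Polynomial.aeval_X, map_one] at h
  have hb : c ≤ (X ^ c).rank + ((X + 1) ^ c).rank := by
    calc c = (1 : Matrix n n F).rank := Matrix.rank_one.symm
      _ = (Polynomial.aeval X u * X ^ c + Polynomial.aeval X v * (X + 1) ^ c).rank := by rw [h]
      _ ≤ (Polynomial.aeval X u * X ^ c).rank + (Polynomial.aeval X v * (X + 1) ^ c).rank :=
        rank_add_le' _ _
      _ ≤ (X ^ c).rank + ((X + 1) ^ c).rank :=
        Nat.add_le_add (Matrix.rank_mul_le_right _ _) (Matrix.rank_mul_le_right _ _)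
  -- (c)
  have hne : ((-1 : F) ^ c) ∈ nonZeroDivisors F :=
    mem_nonZeroDivisors_of_ne_zero (pow_ne_zero _ (neg_ne_zero.mpr one_ne_zero))
  have hcc : ((X + 1) ^ c).rank = (X ^ c).rank := by
    rw [← Matrix.rank_mul_eq_right_of_isUnit_det K _ hKdet, affA_pow K X hA c,
      Matrix.rank_smul_of_mem_nonZeroDivisors _ hne,
      Matrix.rank_mul_eq_left_of_isUnit_det K _ hKdet, ← Matrix.transpose_pow,
      Matrix.rank_transpose]
  omega

end Cfsg.Agent.Lib.Helper10.SPU
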